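import Cfsg.Agent.Lib.BrauerU.Deg

/-!
# The centralizer of `P`, when a numerical equation has no solution

If the `p'`-core is trivial, `P` is its own centralizer.
-/

set_option autoImplicit false
set_option linter.unusedSectionVars false
set_option linter.unusedVariables false

namespace Cfsg.Agent.Lib.BrauerU.Cent

open Cfsg Module
open Cfsg.Agent.Lib.Char.Basic Cfsg.Agent.Lib.Char.Ortho Cfsg.Agent.Lib.Char.Complete
open Cfsg.Agent.Lib.Char.Degree Cfsg.Agent.Lib.Char.Induced
open Cfsg.Agent.Lib.ExcP.Gram Cfsg.Agent.Lib.ExcP.Dual Cfsg.Agent.Lib.ExcP.Core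
open Cfsg.Agent.Lib.ExcP.Inst Cfsg.Agent.Lib.ExcP.BlockHA
open Cfsg.Agent.Lib.Small.ExcPerm
open Cfsg.Agent.Lib.BrauerP.Fourier Cfsg.Agent.Lib.BrauerP.Data Cfsg.Agent.Lib.BrauerP.Data.BD
open Cfsg.Agent.Lib.BrauerU.Arith Cfsg.Agent.Lib.BrauerU.Deg
open scoped ComplexConjugate Classical

universe u

variable {G : Type u} [Group G] [Fintype G] [Fintype (IrrCharacter G)] {p e : ℕ} [hp : Fact p.Prime]
  {P : Subgroup G} {hP : Nat.card P = p} [Fintype P] [Fintype (DD P p)]

variable (D : BD P p e hP) (hp2 : ¬ p ^ 2 ∣ Nat.card G)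

omit [Fintype (DD P p)] [Fintype (IrrCharacter G)] in
/-- A character with value at `1` equal to the average over a subgroup is trivial on it. -/
theorem eq_of_sum_eq {H : Type*} [Fintype H] {f : H → ℂ} {d : ℕ}
    (hle : ∀ x, ‖f x‖ ≤ (d : ℝ)) (hsum : ∑ x, f x = (Fintype.card H : ℂ) * d) (x : H) :
    f x = d := by
  have h1 : ∑ x, ((d : ℝ) - (f x).re) = 0 := by
    have h2 := congrArg Complex.re hsum
    rw [Complex.re_sum] at h2
    rw [Finset.sum_sub_distrib, h2]
    simp
  have h2 : ∀ x, 0 ≤ (d : ℝ) - (f x).re := fun x => by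
    have := Complex.re_le_norm (f x)
    have := hle x
    linarith
  have h3 := (Finset.sum_eq_zero_iff_of_nonneg (fun x _ => h2 x)).mp h1 x (Finset.mem_univ x)
  have h4 : (f x).re = d := by linarith
  have h5 : ‖f x‖ = (f x).re := le_antisymm (by rw [h4]; exact hle x) (Complex.re_le_norm _)
  have h6 : (f x).im = 0 := by
    have h7 := Complex.sq_norm_sub_sq_re (f x)
    rw [h5] at h7
    have h8 : (f x).im * (f x).im = 0 := by nlinarith
    exact mul_self_eq_zero.mp h8
  apply Complex.ext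
  · simp [h4]
  · simp [h6]

/-- The kernel of a member of the block with `z = 1` contains a complement of `P` in `C(P)`. -/
theorem complement_le_ker {M : Ideal AlgInt} (hM : IsPModular p M) {j : IrrCharacter G}
    (hj : D.z j = 1) (hdeg : charDegree (j : G → ℂ) = p - 1) (ha : aP (hP := hP) hp2 j = 0)
    [Fintype (Cn P)] (V : Subgroup (Cn P)) [Fintype V] (hVn : V.Normal) (hV : ¬ p ∣ Nat.card V)
    (hc : Subgroup.IsComplement' (P.subgroupOf (Cn P)) V) (v : V) :
    (j : G → ℂ) ((v : Cn P) : G) = (p - 1 : ℕ) := by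
  have hpp := hp.out.two_le
  have hjB : j ∈ principalBlock M G := by
    rw [mem_principal_iff hM hP hp2]
    obtain ⟨i⟩ : Nonempty (Fin D.t) := ⟨⟨0, D.t_pos⟩⟩
    obtain ⟨d, -⟩ := D.hcsurj i
    refine ⟨d, ?_⟩
    rw [D.inner_z (by rw [hj]; norm_num) d, hj]
    norm_num
  -- values on `u v`
  have hval : ∀ u : P, u ≠ 1 → ∀ v : V, (j : G → ℂ) ((u : G) * ((v : Cn P) : G)) = -1 := by
    intro u hu v
    have hu1 : (u : G) ≠ 1 := fun h => hu (Subtype.ext h)
    have hord : ∃ k : ℕ, orderOf (u : G) = p ^ k := by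
      have h1 : orderOf (u : G) = orderOf u := (Subgroup.orderOf_coe u)
      have h2 : orderOf u ∣ p := by
        rw [← hP]
        exact orderOf_dvd_natCard u
      rcases (Nat.dvd_prime hp.out).mp h2 with h3 | h3
      · exact ⟨0, by rw [h1, h3]; simp⟩
      · exact ⟨1, by rw [h1, h3]; simp⟩
    have h1 := value_of_principal hM hord (centralizer_singleton_eq hP u.2 hu1) V hVn hV hjB v.2
    rw [h1, D.val_z hp2 (by rw [hj]; norm_num) hu, hj]
    simp
  -- the sum over `C(P)` vanishes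
  have hsum0 : ∑ c : Cn P, (j : G → ℂ) c = 0 := by
    obtain ⟨a, b, h1, h2, h3⟩ := Cfsg.Agent.Lib.BrauerP.ResLe.exists_le_of_le (le_centralizer hP)
      (isCharacter_of_isIrrCharacter j.2)
    have hb : b = 0 := by
      have h4 := (aP_spec (hP := hP) hp2 j).1
      rw [ha] at h4
      rw [classInner_subgroup_eq, hP] at h2
      simp only [one_mul] at h2
      rw [h4] at h2
      have : ((b : ℕ) : ℂ) = 0 := by rw [← h2]; simp
      exact_mod_cast this
    have ha0 : a = 0 := by omega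
    rw [ha0, classInner_subgroup_eq] at h1
    simp only [one_mul, Nat.cast_zero] at h1
    have h5 : (Nat.card (Cn P) : ℂ) ≠ 0 := by exact_mod_cast Nat.card_pos.ne'
    have h6 := (mul_eq_zero.mp h1).resolve_left (inv_ne_zero h5)
    have h7 := congrArg conj h6
    simpa only [map_sum, Complex.conj_conj, map_zero] using h7
  rw [Cfsg.Agent.Lib.ExcP.BlockHA.sum_split hP V hc] at hsum0
  have h1 := Finset.add_sum_erase Finset.univ
    (fun u : P => ∑ v : V, (j : G → ℂ) ((⟨u, le_centralizer hP u.2⟩ * (v : Cn P) : Cn P) : G))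
    (Finset.mem_univ (1 : P))
  rw [hsum0] at h1
  have h2 : ∑ u ∈ Finset.univ.erase (1 : P),
      ∑ v : V, (j : G → ℂ) ((⟨u, le_centralizer hP u.2⟩ * (v : Cn P) : Cn P) : G) =
      -(((p - 1 : ℕ) : ℂ) * (Fintype.card V : ℂ)) := by
    have h3 : ∀ u ∈ Finset.univ.erase (1 : P),
        ∑ v : V, (j : G → ℂ) ((⟨u, le_centralizer hP u.2⟩ * (v : Cn P) : Cn P) : G) =
        -(Fintype.card V : ℂ) := by
      intro u hu
      have hu1 : u ≠ 1 := (Finset.mem_erase.mp hu).1
      have h4 : ∀ v : V, (j : G → ℂ) ((⟨u, le_centralizer hP u.2⟩ * (v : Cn P) : Cn P) : G) = -1 :=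
        fun v => hval u hu1 v
      simp only [h4]
      rw [Finset.sum_const, Finset.card_univ]
      simp
    rw [Finset.sum_congr rfl h3, Finset.sum_const, Finset.card_erase_of_mem (Finset.mem_univ _),
      Finset.card_univ, ← Nat.card_eq_fintype_card (α := P), hP]
    simp
  rw [h2] at h1
  have h3 : ∑ v : V, (j : G → ℂ) ((v : Cn P) : G) = (Fintype.card V : ℂ) * (p - 1 : ℕ) := by
    have h4 : ∀ v : V, ((⟨((1 : P) : G), le_centralizer hP (1 : P).2⟩ * (v : Cn P) : Cn P) : G) =
        ((v : Cn P) : G) := by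
      intro v
      show ((1 : P) : G) * ((v : Cn P) : G) = _
      simp
    simp only [h4] at h1
    linear_combination h1
  refine eq_of_sum_eq (f := fun v : V => (j : G → ℂ) ((v : Cn P) : G)) ?_ h3 v
  intro x
  rw [← hdeg]
  exact norm_le_charDegree (isCharacter_of_isIrrCharacter j.2) _

/-- A normal subgroup whose members have values different from those on `P` has order prime to `p`. -/
theorem coprime_of_ker {Q₀ : Sylow p G} (hQ₀ : (Q₀ : Subgroup G) = P) (hP : Nat.card P = p)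
    (L : Subgroup G) [hL : L.Normal] (χ : G → ℂ) (hχ : IsClassFunction G χ) {c : ℂ}
    (hLc : ∀ x ∈ L, χ x = c) (hPc : ∀ u ∈ P, u ≠ 1 → χ u ≠ c) : (Nat.card L).Coprime p := by
  apply Nat.Coprime.symm
  rw [Nat.Prime.coprime_iff_not_dvd hp.out]
  intro hd
  obtain ⟨x, hx⟩ := exists_prime_orderOf_dvd_card' p hd
  have hx1 : (x : G) ≠ 1 := by
    intro h
    have h2 : x = 1 := Subtype.ext h
    rw [h2, orderOf_one] at hx
    exact hp.out.one_lt.ne hx
  have hxo : orderOf (x : G) = p := by rw [Subgroup.orderOf_coe, hx]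
  have hxp : IsPGroup p (Subgroup.zpowers (x : G)) :=
    IsPGroup.of_card (n := 1) (by rw [Nat.card_zpowers, hxo, pow_one])
  obtain ⟨Q, hQ⟩ := hxp.exists_le_sylow
  obtain ⟨g, hg⟩ := MulAction.exists_smul_eq G Q Q₀
  have hxQ : (x : G) ∈ (Q : Subgroup G) := hQ (Subgroup.mem_zpowers _)
  have h1 : g * (x : G) * g⁻¹ ∈ (Q₀ : Subgroup G) := by
    rw [← hg, Sylow.coe_subgroup_smul]
    exact Subgroup.mem_pointwise_smul_iff_inv_smul_mem.mpr (by
      simpa [MulAut.smul_def, mul_assoc] using hxQ)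
  rw [hQ₀] at h1
  have h2 : g * (x : G) * g⁻¹ ≠ 1 := by
    intro h
    apply hx1
    calc (x : G) = g⁻¹ * (g * (x : G) * g⁻¹) * g := by group
      _ = 1 := by rw [h]; group
  apply hPc _ h1 h2
  rw [hχ (x : G) g]
  exact hLc _ x.2

variable {n k : ℕ}
  (hG : Nat.card G = Nat.card (Cn P) * (e * n)) (hn : n = 1 + k * p) (hk1 : 1 ≤ k) (hF : NoThird p k)
  (hlin : ∀ j : IrrCharacter G, charDegree (j : G → ℂ) = 1 → j = oneIrr G)

include D hp2 hG hn hk1 hF hlin

/-- If the `p'`-core is trivial, `P` is its own centralizer. -/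
theorem cent_eq {M : Ideal AlgInt} (hM : IsPModular p M) (he2 : 2 ≤ e) (hcore : pPrimeCore p G = ⊥)
    {Q₀ : Sylow p G} (hQ₀ : (Q₀ : Subgroup G) = P) : Cn P = P := by
  have hpp := hp.out.two_le
  obtain ⟨j, hjB⟩ := setB_nonempty D hp2 hG hn hk1 hF hlin he2
  have hj : D.z j = 1 := (Finset.mem_filter.mp hjB).2
  obtain ⟨hdeg, ha⟩ := deg_zp D hp2 hG hn hk1 hF hlin hj
  obtain ⟨V, hVn, hV, -, hc⟩ := exists_complement hP hp2
  let _ : Fintype (Cn P) := Fintype.ofFinite _
  let _ : Fintype V := Fintype.ofFinite _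
  have hker := complement_le_ker D hp2 hM hj hdeg ha V hVn hV hc
  have hχ := isCharacter_of_isIrrCharacter j.2
  have hone : (j : G → ℂ) 1 = (p - 1 : ℕ) := by
    rw [← hdeg]
    exact (charDegree_natCast hχ).symm
  have hL : Nat.Coprime (Nat.card (charKer hχ)) p := by
    apply coprime_of_ker hQ₀ hP (charKer hχ) (j : G → ℂ)
      (isClassFunction_of_isCharacter hχ) (c := (p - 1 : ℕ))
    · intro x hx
      rw [mem_charKer] at hx
      rw [hx, hone]
    · intro u hu hu1
      have hu' : (⟨u, hu⟩ : P) ≠ 1 := fun h => hu1 (congrArg Subtype.val h)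
      have h1 := D.val_z hp2 (by rw [hj]; norm_num) hu'
      simp only at h1
      rw [h1, hj]
      intro h2
      have h3 : ((p - 1 : ℕ) : ℂ) + 1 = 0 := by
        rw [← h2]
        simp
      have h4 : ((p - 1 + 1 : ℕ) : ℂ) = 0 := by
        push_cast
        exact_mod_cast h3
      have h5 : p - 1 + 1 = 0 := by exact_mod_cast h4
      omega
  have hle : charKer hχ ≤ pPrimeCore p G := le_sSup ⟨inferInstance, hL⟩
  rw [hcore] at hle
  have hVbot : ∀ v : V, v = 1 := by
    intro v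
    have h1 : ((v : Cn P) : G) ∈ charKer hχ := by
      rw [mem_charKer, hker v, hone]
    have h2 := hle h1
    rw [Subgroup.mem_bot] at h2
    apply Subtype.ext
    apply Subtype.ext
    exact h2
  have hVcard : Nat.card V = 1 := by
    rw [Nat.card_eq_one_iff_unique]
    exact ⟨⟨fun a b => by rw [hVbot a, hVbot b]⟩, ⟨1⟩⟩
  have h1 := hc.card_mul_card
  rw [hVcard, mul_one, Nat.card_congr (Subgroup.subgroupOfEquivOfLe (le_centralizer hP)).toEquiv] at h1
  symm
  exact Subgroup.eq_of_le_of_card_ge (le_centralizer hP) h1.ge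

end Cfsg.Agent.Lib.BrauerU.Cent
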