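import Cfsg.Agent.Lib.BrauerU.Cent

/-!
# The number of Sylow subgroups, when a numerical equation has no solution

If `P` is its own centralizer and the equation `k (u + 1) = h u p + u² + u + h` has no solution in
positive integers, then the number of Sylow subgroups is small.
-/

set_option autoImplicit false
set_option linter.unusedSectionVars false
set_option linter.unusedVariables false

namespace Cfsg.Agent.Lib.BrauerU.Few

open Cfsg Module MulAction
open Cfsg.Agent.Lib.Char.Basic Cfsg.Agent.Lib.Char.Ortho Cfsg.Agent.Lib.Char.Complete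
open Cfsg.Agent.Lib.Char.Degree Cfsg.Agent.Lib.Char.Induced
open Cfsg.Agent.Lib.ExcP.Gram Cfsg.Agent.Lib.ExcP.Dual Cfsg.Agent.Lib.ExcP.Core
open Cfsg.Agent.Lib.ExcP.Inst Cfsg.Agent.Lib.ExcP.BlockHA
open Cfsg.Agent.Lib.Small.ExcPerm
open Cfsg.Agent.Lib.BrauerP.Fourier Cfsg.Agent.Lib.BrauerP.Data Cfsg.Agent.Lib.BrauerP.Data.BD
open Cfsg.Agent.Lib.BrauerP.Frob
open Cfsg.Agent.Lib.BrauerU.Arith
open scoped ComplexConjugate Classical

universe u

variable {G : Type u} [Group G] [Fintype G] [Fintype (IrrCharacter G)] {p e : ℕ} [hp : Fact p.Prime]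
  {P : Subgroup G} {hP : Nat.card P = p} [Fintype P] [Fintype (DD P p)]

variable (D : BD P p e hP) (hp2 : ¬ p ^ 2 ∣ Nat.card G) {n k : ℕ}
  (hG : Nat.card G = Nat.card (Cn P) * (e * n)) (hn : n = 1 + k * p) (hk1 : 1 ≤ k) (hF : NoThird p k)
  (hlin : ∀ j : IrrCharacter G, charDegree (j : G → ℂ) = 1 → j = oneIrr G)
  (hC : Cn P = P) {Q₀ : Sylow p G} (hQ₀ : (Q₀ : Subgroup G) = P)
  (hcardS : Nat.card (Sylow p G) = n)

include hp2 hG hn hk1 hF hlin hC hQ₀ hcardS

set_option maxHeartbeats 1000000 in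
/-- The multiplicities in the permutation character on the Sylow subgroups. -/
theorem perm_mult (hε : D.ε = -1) :
    ∃ m : IrrCharacter G → ℕ, (∀ j : IrrCharacter G, classInner (piS G p) (j : G → ℂ) = m j) ∧
      m (oneIrr G) = 1 ∧ (∀ j ∈ setA D, m j = 0) ∧ (∀ j ∈ setB D, m j = 0) ∧ (∀ i, m (D.ν i) = 0) ∧
      (∀ j ∈ setC D, m j = aP (hP := hP) hp2 j) ∧ classInner (piS G p) (piS G p) = (k : ℂ) + 1 := by
  classical
  let _ : Fintype (Sylow p G) := Fintype.ofFinite _
  have hpp := hp.out.two_le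
  have hG' : Nat.card G = p * (e * n) := by
    rw [hG, hC, hP]
  obtain ⟨m, hm1, hm2, hm3⟩ := exists_perm_coeff (G := G) (Ω := Sylow p G)
  have hm1' : ∀ j : IrrCharacter G, classInner (piS G p) (j : G → ℂ) = m j := hm1
  have hpi : IsClassFunction G (piS G p) := isClassFunction_of_isCharacter isCharacter_piS
  -- `m 1 = 1`
  have hmone : m (oneIrr G) = 1 := by
    have h1 := hm1' (oneIrr G)
    have h2 : classInner (piS G p) ((oneIrr G : IrrCharacter G) : G → ℂ) = 1 :=
      classInner_perm_one' (G := G) (Ω := Sylow p G)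
    rw [h2] at h1
    exact_mod_cast h1.symm
  -- `m ≤ a`
  have hle : ∀ j : IrrCharacter G, m j ≤ aP (hP := hP) hp2 j := by
    intro j
    let N' : Subgroup G := stabilizer G Q₀
    let _ : Fintype N' := Fintype.ofFinite _
    have hPN : P ≤ N' := by
      intro x hx
      show x • Q₀ = Q₀
      rw [Sylow.smul_eq_iff_mem_normalizer]
      rw [← hQ₀] at hx
      exact Subgroup.le_normalizer hx
    obtain ⟨a, b, ha, hb, hab⟩ := Cfsg.Agent.Lib.BrauerP.ResLe.exists_le_of_le hPN
      (isCharacter_of_isIrrCharacter j.2)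
    have h1 : piS G p = indFun N' (fun _ => 1) := by
      funext g
      exact Cfsg.Agent.Lib.Char.PermChar.card_fixedBy_eq_indFun (Sylow p G) Q₀ g
    have h2 : (m j : ℂ) = a := by
      rw [← hm1', h1, classInner_indFun_left _ _ _ (isClassFunction_of_isIrrCharacter j.2), ha]
    have h3 : (aP (hP := hP) hp2 j : ℂ) = b := by
      rw [← (aP_spec (hP := hP) hp2 j).1, ← hb, classInner_subgroup_eq, hP]
      simp
    have h4 : m j = a := by exact_mod_cast h2
    have h5 : aP (hP := hP) hp2 j = b := by exact_mod_cast h3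
    rw [h4, h5]
    exact hab
  -- the basic data
  obtain ⟨i₀⟩ : Nonempty (Fin D.t) := ⟨⟨0, D.t_pos⟩⟩
  obtain ⟨c, hc1, hc2, -⟩ := Deg.deg_νm D hp2 hG hn hF hlin hε i₀
  have hrelm := Deg.rel_m D hp2 hG hn hk1 hF hlin hε hc1 hc2
  have hA0 := card_setA_add D
  -- `m = 0` on `B`
  have hmB : ∀ j ∈ setB D, m j = 0 := by
    intro j hj
    have h1 := hle j
    rw [(Deg.deg_zp D hp2 hG hn hk1 hF hlin (Finset.mem_filter.mp hj).2).2] at h1
    omega
  -- the inner products with `Θ`
  have hkey : ∀ d : DD P p, (∑ j ∈ setA D, m j) + m (D.ν (D.c d)) = 0 := by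
    intro d
    have h1 : classInner (Th P d.1) (piS G p) = -1 := by
      have h2 := classInner_Th_const hP hC d.2.2 hpi (f := 1) (fun u hu hu1 => piS_of_mem hP hQ₀ hu hu1)
      rw [h2]
      simp
    have h2 : classInner (Th P d.1) (piS G p) = ∑ j, (m j : ℂ) * classInner (Th P d.1) (j : G → ℂ) :=
      hm3 _
    rw [h1] at h2
    simp only [D.hinner, hε] at h2
    have h3 : ∀ j : IrrCharacter G, (m j : ℂ) * ((D.z j + -1 * (if D.ν (D.c d) = j then 1 else 0) : ℤ) : ℂ) =
        (D.z j : ℂ) * (m j : ℂ) - (if D.ν (D.c d) = j then (m j : ℂ) else 0) := by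
      intro j
      by_cases h : D.ν (D.c d) = j
      · simp only [h, if_true]
        push_cast
        ring
      · simp only [h, if_false]
        push_cast
        ring
    simp only [h3] at h2
    rw [Finset.sum_sub_distrib, Finset.sum_ite_eq, if_pos (Finset.mem_univ _), sum_z D (fun j => (m j : ℂ)),
      hmone, Finset.sum_eq_zero (s := setB D) (fun j hj => by rw [hmB j hj]; simp)] at h2
    have h4 : (((∑ j ∈ setA D, m j) + m (D.ν (D.c d)) : ℕ) : ℂ) = 0 := by
      push_cast
      push_cast at h2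
      linear_combination h2
    exact_mod_cast h4
  have hmν : ∀ i, m (D.ν i) = 0 := by
    intro i
    obtain ⟨d, hd⟩ := D.hcsurj i
    have h1 := hkey d
    rw [hd] at h1
    omega
  have hmA : ∀ j ∈ setA D, m j = 0 := by
    intro j hj
    obtain ⟨d⟩ : Nonempty (DD P p) := by
      obtain ⟨d, -⟩ := D.hcsurj i₀
      exact ⟨d⟩
    have h1 := hkey d
    have h2 : ∑ j ∈ setA D, m j = 0 := by omega
    exact (Finset.sum_eq_zero_iff.mp h2) j hj
  -- degrees
  have hCdeg : ∀ j ∈ setC D, charDegree (j : G → ℂ) = p * aP (hP := hP) hp2 j := by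
    intro j hj
    obtain ⟨h4, h5⟩ := (Finset.mem_filter.mp hj).2
    exact D.deg_other hp2 hC h4 h5
  have hsumk : ∑ j ∈ setC D, m j * aP (hP := hP) hp2 j = k := by
    have h1 := hm2
    rw [sum_split D (fun j => m j * charDegree (j : G → ℂ)), hmone, charDegree_oneIrr,
      Finset.sum_eq_zero (s := setA D) (fun j hj => by rw [hmA j hj, zero_mul]),
      Finset.sum_eq_zero (s := setB D) (fun j hj => by rw [hmB j hj, zero_mul]),
      Finset.sum_eq_zero (s := Finset.univ) (fun i _ => by rw [hmν i, zero_mul]),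
      Finset.sum_congr rfl (fun j hj => by rw [hCdeg j hj]), hcardS, hn] at h1
    have h2 : ∑ j ∈ setC D, m j * (p * aP (hP := hP) hp2 j) = p * ∑ j ∈ setC D, m j * aP (hP := hP) hp2 j := by
      rw [Finset.mul_sum]
      refine Finset.sum_congr rfl fun j _ => ?_
      ring
    rw [h2] at h1
    simp only [mul_one, zero_add] at h1
    have h3 : p * ∑ j ∈ setC D, m j * aP (hP := hP) hp2 j = p * k := by
      rw [mul_comm p k]
      omega
    exact Nat.eq_of_mul_eq_mul_left (by omega) h3
  have hsumsq : ∑ j ∈ setC D, aP (hP := hP) hp2 j ^ 2 = k := by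
    have h1 := sum_charDegree_sq (G := G)
    rw [sum_split D (fun j => charDegree (j : G → ℂ) ^ 2), charDegree_oneIrr] at h1
    have h2 : ∑ j ∈ setA D, charDegree (j : G → ℂ) ^ 2 = (setA D).card * n ^ 2 := by
      rw [← smul_eq_mul, ← Finset.sum_const]
      refine Finset.sum_congr rfl fun j hj => ?_
      obtain ⟨h4, h5⟩ := (Finset.mem_filter.mp hj).2
      rw [(Deg.deg_zm D hp2 hG hn hF hlin h4 h5).1]
    have h3 : ∑ j ∈ setB D, charDegree (j : G → ℂ) ^ 2 = (setB D).card * (p - 1) ^ 2 := by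
      rw [← smul_eq_mul, ← Finset.sum_const]
      refine Finset.sum_congr rfl fun j hj => ?_
      rw [(Deg.deg_zp D hp2 hG hn hk1 hF hlin (Finset.mem_filter.mp hj).2).1]
    have h4 : ∑ i, charDegree (D.ν i : G → ℂ) ^ 2 = D.t * D.D₀ ^ 2 := by
      simp only [D.hνdeg]
      rw [Finset.sum_const, Finset.card_univ, Fintype.card_fin, smul_eq_mul]
    have h5 : ∑ j ∈ setC D, charDegree (j : G → ℂ) ^ 2 = p ^ 2 * ∑ j ∈ setC D, aP (hP := hP) hp2 j ^ 2 := by
      rw [Finset.mul_sum]
      refine Finset.sum_congr rfl fun j hj => ?_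
      rw [hCdeg j hj]
      ring
    rw [h2, h3, h4, h5, hG'] at h1
    exact arith_stepC (by omega) D.hte hn hc2 hc1 hA0 hrelm h1
  have hmC : ∀ j ∈ setC D, m j = aP (hP := hP) hp2 j := by
    have h1 : ∑ j ∈ setC D, m j * aP (hP := hP) hp2 j =
        ∑ j ∈ setC D, aP (hP := hP) hp2 j * aP (hP := hP) hp2 j := by
      rw [hsumk, ← hsumsq]
      refine Finset.sum_congr rfl fun j _ => ?_
      ring
    have h2 := (Finset.sum_eq_sum_iff_of_le
      (fun j _ => Nat.mul_le_mul_right _ (hle j))).mp h1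
    intro j hj
    have h3 := h2 j hj
    rcases Nat.eq_zero_or_pos (aP (hP := hP) hp2 j) with h4 | h4
    · have h5 := hle j
      omega
    · exact Nat.eq_of_mul_eq_mul_right h4 h3
  refine ⟨m, hm1', hmone, hmA, hmB, hmν, hmC, ?_⟩
  rw [classInner_eq_sum hpi]
  simp only [hm1', Complex.conj_natCast]
  have h1 : ∑ j : IrrCharacter G, (m j : ℂ) * (m j : ℂ) = ((∑ j : IrrCharacter G, m j * m j : ℕ) : ℂ) := by
    push_cast
    rfl
  rw [h1, sum_split D (fun j => m j * m j), hmone,
      Finset.sum_eq_zero (s := setA D) (fun j hj => by rw [hmA j hj, zero_mul]),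
      Finset.sum_eq_zero (s := setB D) (fun j hj => by rw [hmB j hj, zero_mul]),
      Finset.sum_eq_zero (s := Finset.univ) (fun i _ => by rw [hmν i, zero_mul])]
  have h2 : ∑ j ∈ setC D, m j * m j = k := by
    rw [← hsumk]
    refine Finset.sum_congr rfl fun j hj => ?_
    rw [hmC j hj]
  rw [h2]
  push_cast
  ring

include D in
/-- The number of Sylow subgroups is small. -/
theorem few (S : SC P p e) (he2 : 2 ≤ e) (hpe : ¬ p ∣ e) : 2 * n < (p + 1) * (p + 2) := by
  classical
  have hpp := hp.out.two_le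
  have hG' : Nat.card G = p * (e * n) := by
    rw [hG, hC, hP]
  have hte := D.hte
  have ht0 := D.t_pos
  rcases D.hε with hε | hε
  · -- `ε = 1`
    obtain ⟨i₀⟩ : Nonempty (Fin D.t) := ⟨⟨0, D.t_pos⟩⟩
    have h1 := Deg.card_rel D hp2 hG hn hk1 hF hlin
    rw [hε, (Deg.deg_νp D hp2 hG hn hk1 hF hlin hε i₀).1] at h1
    have hA : (setA D).Nonempty := by
      by_contra hcon
      have hB : setA D = ∅ := Finset.not_nonempty_iff_eq_empty.mp hcon
      rw [hB] at h1
      simp only [Finset.card_empty, Nat.cast_zero, zero_mul, add_zero] at h1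
      have h2 : (0 : ℤ) ≤ (setB D).card * ((p : ℤ) - 1) := by
        have : (2 : ℤ) ≤ p := by exact_mod_cast hpp
        have h3 : (0 : ℤ) ≤ (setB D).card := by positivity
        nlinarith
      have h3 : (2 : ℤ) ≤ e := by exact_mod_cast he2
      linarith
    obtain ⟨j, hj⟩ := hA
    obtain ⟨h4, h5⟩ := (Finset.mem_filter.mp hj).2
    have h6 := (Deg.deg_zm D hp2 hG hn hF hlin h4 h5).1
    have h7 := charDegree_sq_le j
    rw [h6, hG', pow_two] at h7
    have hn0 : 0 < n := by omega
    have h8 : n ≤ p * e := by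
      have : n * n ≤ (p * e) * n := by
        calc n * n ≤ p * (e * n) := h7
          _ = (p * e) * n := by ring
      exact Nat.le_of_mul_le_mul_right this hn0
    have ht2 : 2 ≤ D.t := by
      by_contra hlt
      have h9 : D.t = 1 := by omega
      have h10 := D.ht1 h9
      rw [hε] at h10
      norm_num at h10
    have h9 : 2 * e ≤ p - 1 := by
      rw [← hte]
      exact Nat.mul_le_mul_right _ ht2
    have h10 : 2 * n ≤ p * (p - 1) := by
      calc 2 * n ≤ 2 * (p * e) := by omega
        _ = p * (2 * e) := by ring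
        _ ≤ p * (p - 1) := Nat.mul_le_mul_left _ h9
    have h11 : p * (p - 1) < (p + 1) * (p + 2) := by
      have h12 : p - 1 < p + 2 := by omega
      calc p * (p - 1) ≤ p * (p + 2) := Nat.mul_le_mul_left _ (by omega)
        _ < (p + 1) * (p + 2) := by nlinarith
    omega
  · -- `ε = -1`
    obtain ⟨m, hm1, hmone, hmA, hmB, hmν, hmC, hrank⟩ :=
      perm_mult D hp2 hG hn hk1 hF hlin hC hQ₀ hcardS hε
    have hcardS' : Nat.card (Sylow p G) = 1 + k * p := by rw [hcardS, hn]
    have hall : ∀ Q : Sylow p G, Q ≠ Q₀ → IsC P e (KK P Q) :=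
      fun Q hQ => isC_KK S hQ₀ hrank hcardS' hQ
    obtain ⟨Q₁, hQ₁⟩ : ∃ Q : Sylow p G, Q ≠ Q₀ := by
      have h1 : 1 < Nat.card (Sylow p G) := by
        rw [hcardS']
        have : 0 < k * p := by positivity
        omega
      have := Finite.one_lt_card_iff_nontrivial.mp h1
      exact exists_ne Q₀
    have hE := hall Q₁ hQ₁
    have hcn := card_normalizer S hQ₀ hE hall he2 hpe hrank hcardS'
    obtain ⟨i₀⟩ : Nonempty (Fin D.t) := ⟨⟨0, D.t_pos⟩⟩
    obtain ⟨c, hc1, hc2, -⟩ := Deg.deg_νm D hp2 hG hn hF hlin hε i₀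
    have hrelm := Deg.rel_m D hp2 hG hn hk1 hF hlin hε hc1 hc2
    have he0 : 0 < e := SC.IsC.e_pos hE
    have hdvd : (k + 1) ∣ p * n := by
      have h1 : e * (k + 1) ∣ p * (e * n) := by
        rw [← hcn, ← hG']
        exact Subgroup.card_subgroup_dvd_card _
      have h2 : p * (e * n) = e * (p * n) := by ring
      rw [h2] at h1
      exact Nat.dvd_of_mul_dvd_mul_left he0 h1
    have hc : c = 1 := arith_c hp.out D.hte D.t_pos hn hc2 hrelm hdvd
    subst hc
    rw [one_mul] at hc2
    have h9 : 2 * D.t ≤ p - 1 := by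
      rw [← hte, mul_comm 2]
      exact Nat.mul_le_mul_left _ he2
    have h10 : 2 * k + 3 ≤ p := by omega
    rw [hn]
    nlinarith

end Cfsg.Agent.Lib.BrauerU.Few
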